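import Cfsg.Agent.H0.VFi223.K0
set_option maxRecDepth 100000
set_option Elab.async false
namespace H0.VFi223
open H0 BN 
universe u
theorem stem {G : Type u} [Group G] [Finite G] (P : Pres G 9 H0.MFi22.B) (hG : commutator G = ⊤) : StemElt G (3 ^ (0 + 1)) :=
  stemElt_of P hG R.p J c (by decide) (all_take_done (all_take_step (all_take_step (all_take_step (all_take_step (all_take_step (all_take_step (all_take_step (all_take_step (all_take_step (all_take_zero _ E) (pw_done R (pw_step R (pw_step R (pw_step R (pw_step R (pw_step R (pw_step R (pw_zero R ((E.drop 0).take 12)) c0) c1) c2) c3) c4) c5))) (pw_done R (pw_step R (pw_step R (pw_step R (pw_step R (pw_step R (pw_step R (pw_zero R ((E.drop 12).take 9)) c6) c7) c8) c9) c10) c11))) (pw_done R (pw_step R (pw_step R (pw_step R (pw_step R (pw_step R (pw_step R (pw_zero R ((E.drop 21).take 9)) c12) c13) c14) c15) c16) c17))) (pw_done R (pw_step R (pw_step R (pw_step R (pw_step R (pw_step R (pw_step R (pw_zero R ((E.drop 30).take 8)) c18) c19) c20) c21) c22) c23))) (pw_done R (pw_step R (pw_step R (pw_step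 R (pw_step R (pw_step R (pw_step R (pw_zero R ((E.drop 38).take 7)) c24) c25) c26) c27) c28) c29))) (pw_done R (pw_step R (pw_step R (pw_step R (pw_step R (pw_step R (pw_step R (pw_step R (pw_step R (pw_step R (pw_step R (pw_step R (pw_step R (pw_step R (pw_step R (pw_step R (pw_step R (pw_step R (pw_step R (pw_zero R ((E.drop 45).take 1)) c30) c31) c32) c33) c34) c35) c36) c37) c38) c39) c40) c41) c42) c43) c44) c45) c46) c47))) (pw_done R (pw_step R (pw_step R (pw_step R (pw_step R (pw_step R (pw_step R (pw_step R (pw_step R (pw_step R (pw_zero R ((E.drop 46).take 1)) c48) c49) c50) c51) c52) c53) c54) c55) c56))) (pw_done R (pw_step R (pw_step R (pw_step R (pw_step R (pw_step R (pw_step R (pw_step R (pw_step R (pw_step R (pw_zero R ((E.drop 47).take 1)) c57) c58) c59) c60) c61) c62) c63) c64) c65))) (pw_done R (pw_step R (pw_step R (pw_step R (pw_step R (pw_step R (pw_step R (pw_zero R ((E.drop 48).take 9)) c66) c67) c68) c69) c70) c71))) (by decide +kernel)) (eq_of_bits R (eqb_step R (eqb_step R (eqb_step R (eqb_step R (eqb_step R (eqb_step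 R (eqb_zero R [9, 9, 9] []) c72) c73) c74) c75) c76) c77))
    (ne_one_of_maps R (u := [9]) c78 (by decide)) (by decide +kernel)
end H0.VFi223
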